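import Cfsg.Agent.H960.Cases

/-!
Minus type (H960): no two commuting involutions independent modulo scalars, and no fixed-point-free element of
order three.
-/

set_option autoImplicit false
open Cfsg Cfsg.Geo Matrix
open scoped MatrixGroups

namespace Cfsg.Agent.H960

variable {ι : Type} [Fintype ι] [DecidableEq ι] {F : Type*} [Field F] {R : Subgroup (GL ι F)}

theorem minus_false (E : Ext R) (hm : IsOfMinusType 2 R) {a b : GL ι F} (ha : a ∈ R) (hb : b ∈ R)
    (haa : a * a = 1) (hbb : b * b = 1) (hab : a * b = b * a) (has : a ∉ scalars ι F) (hbs : b ∉ scalars ι F)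
    (habs : a * b ∉ scalars ι F) : False := by
  have hne := E.ne
  have hfin := E.fin
  have hneg1 : (-1 : GL ι F) ≠ 1 := by
    have := neg_ne E.two (1 : GL ι F)
    simpa using this
  have hcomm : ∀ x ∈ ({a, b, -1} : Set (GL ι F)), ∀ y ∈ ({a, b, -1} : Set (GL ι F)), x * y = y * x := by
    intro x hx y hy
    simp only [Set.mem_insert_iff, Set.mem_singleton_iff] at hx hy
    rcases hx with rfl | rfl | rfl <;> rcases hy with rfl | rfl | rfl <;>
      first | rfl | exact hab | exact hab.symm | simp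
  set A0 := Subgroup.closure ({a, b, -1} : Set (GL ι F)) with hA0
  have hA0R : A0 ≤ R := by
    rw [hA0, Subgroup.closure_le]
    intro x hx
    simp only [Set.mem_insert_iff, Set.mem_singleton_iff] at hx
    rcases hx with rfl | rfl | rfl
    · exact ha
    · exact hb
    · exact E.neg
  have hA0c : ∀ x ∈ A0, ∀ y ∈ A0, x * y = y * x := by
    have h1 : IsMulCommutative A0 := Subgroup.isMulCommutative_closure (fun a ha b hb => hcomm a ha b hb)
    intro a ha b hb
    have := h1.is_comm.comm ⟨a, ha⟩ ⟨b, hb⟩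
    exact congrArg Subtype.val this
  have hA0sq : ∀ x ∈ A0, x * x = 1 := by
    intro x hx
    induction hx using Subgroup.closure_induction with
    | mem a ha =>
      simp only [Set.mem_insert_iff, Set.mem_singleton_iff] at ha
      rcases ha with rfl | rfl | rfl
      · exact haa
      · exact hbb
      · simp
    | one => simp
    | mul a b ha hb iha ihb =>
      rw [mul_assoc, ← mul_assoc b, hA0c b hb a ha]
      calc a * (a * b * b) = (a * a) * (b * b) := by group
        _ = 1 := by rw [iha, ihb, one_mul]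
    | inv a ha iha =>
      rw [← _root_.mul_inv_rev, iha, inv_one]
  have h8 := hm (A0.subgroupOf R)
    ⟨⟨fun a b => Subtype.ext (Subtype.ext (hA0c _ (Subgroup.mem_subgroupOf.1 a.2) _ (Subgroup.mem_subgroupOf.1 b.2)))⟩⟩
    (fun a ha => Subtype.ext (hA0sq _ (Subgroup.mem_subgroupOf.1 ha)))
  rw [Nat.card_congr (Subgroup.subgroupOfEquivOfLe hA0R).toEquiv] at h8
  have hf : Finite A0 := Finite.of_injective _ (Subgroup.inclusion_injective hA0R)
  have ha0 : a ∈ A0 := Subgroup.subset_closure (by simp)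
  have hb0 : b ∈ A0 := Subgroup.subset_closure (by simp)
  have hn0 : (-1 : GL ι F) ∈ A0 := Subgroup.subset_closure (by simp)
  obtain ⟨h, hh, hha⟩ := E.exists_anti ha has
  have hfv := card_two_mul (K := A0) (g := h) (fun k hk => E.comm k (hA0R hk) h hh) ha0
    (fun hc => E.anti_ne hha hc.symm)
  obtain ⟨b', hb'0, hb's, hb'h⟩ : ∃ b' ∈ A0, b' ∉ scalars ι F ∧ b' * h = h * b' := by
    rcases E.comm b hb h hh with h1 | h1
    · exact ⟨b, hb0, hbs, h1⟩
    · refine ⟨a * b, A0.mul_mem ha0 hb0, habs, ?_⟩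
      rw [mul_assoc, h1, mul_neg, ← mul_assoc, ← mul_assoc, hha, neg_mul]
  have hf' : Finite (CR A0 h) := Finite.of_injective _ (Subgroup.inclusion_injective (CR_le (R := A0) (y := h)))
  obtain ⟨k, hk, hkb⟩ := E.exists_anti (hA0R hb'0) hb's
  have hfv2 := card_two_mul (K := CR A0 h) (g := k)
    (fun x hx => E.comm x (hA0R (CR_le hx)) k hk) (k0 := b')
    (mem_CR.2 ⟨hb'0, hb'h⟩) (fun hc => E.anti_ne hkb hc.symm)
  have hn : (-1 : GL ι F) ∈ CR (CR A0 h) k := mem_CR.2 ⟨mem_CR.2 ⟨hn0, by simp⟩, by simp⟩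
  have hf'' : Finite (CR (CR A0 h) k) :=
    Finite.of_injective _ (Subgroup.inclusion_injective (CR_le (R := CR A0 h) (y := k)))
  have h9 : 1 < Nat.card (CR (CR A0 h) k) := by
    rw [Finite.one_lt_card_iff_nontrivial]
    exact ⟨⟨⟨1, Subgroup.one_mem _⟩, ⟨-1, hn⟩, fun h => hneg1 (congrArg Subtype.val h).symm⟩⟩
  omega

/-- In minus type no element of order three acts without fixed points on `R/Z`. -/
theorem no_fpf_of_minus (E : Ext R) (hm : IsOfMinusType 2 R)
    (hZ2 : Nat.card (R ⊓ scalars ι F : Subgroup (GL ι F)) = 2) {y : GL ι F} (hy : y ∈ subgroupNormalizer R)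
    (hy3 : y ^ 3 ∈ scalars ι F)
    (hC : Nat.card (CR R y) = Nat.card (R ⊓ scalars ι F : Subgroup (GL ι F))) : False := by
  have hne := E.ne
  have hfin := E.fin
  have hneg1 : (-1 : GL ι F) ≠ 1 := by
    have := neg_ne E.two (1 : GL ι F)
    simpa using this
  obtain ⟨u, hu, hus, huu⟩ := E.exists_involution
  -- `C_R(y) = Z`
  have hCZ : ∀ c ∈ R, c * y = y * c → c ∈ scalars ι F := by
    have h1 : R ⊓ scalars ι F ≤ CR R y := fun z hz => mem_CR.2 ⟨hz.1, comm_of_scalar hz.2 y⟩
    have hf : Finite (CR R y) := Finite.of_injective _ (Subgroup.inclusion_injective (CR_le (R := R) (y := y)))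
    have h2 : R ⊓ scalars ι F = CR R y := Subgroup.eq_of_le_of_card_ge h1 hC.le
    intro c hc hcy
    have h3 : c ∈ CR R y := mem_CR.2 ⟨hc, hcy⟩
    rw [← h2] at h3
    exact h3.2
  have hy3c : ∀ x : GL ι F, y ^ 3 * x = x * y ^ 3 := comm_of_scalar hy3
  -- sign argument
  have sign : ∀ c ∈ R, (y * c * y⁻¹ = c ∨ y * c * y⁻¹ = -c) → c ∈ scalars ι F := by
    intro c hc h
    rcases h with h | h
    · apply hCZ c hc
      rw [mul_inv_eq_iff_eq_mul] at h
      exact h.symm
    · exfalso
      have h1 : y * c = -(c * y) := by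
        rw [mul_inv_eq_iff_eq_mul] at h
        rw [h, neg_mul]
      have h2 : y ^ 3 * c = -(c * y ^ 3) := by
        have h1' : ∀ x, y * (c * x) = -(c * (y * x)) := fun x => by rw [← mul_assoc, h1, neg_mul, mul_assoc]
        simp only [pow_succ, pow_zero, one_mul, mul_assoc, h1, h1', mul_neg, neg_neg]
      rw [hy3c] at h2
      exact neg_ne E.two _ h2.symm
  set u1 := y * u * y⁻¹ with hu1
  set u2 := y * u1 * y⁻¹ with hu2
  have hu1R : u1 ∈ R := mem_normalizer hy hu
  have hu2R : u2 ∈ R := mem_normalizer hy hu1R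
  have hu3 : y * u2 * y⁻¹ = u := by
    have h1 : y * u2 * y⁻¹ = y ^ 3 * u * (y ^ 3)⁻¹ := by
      rw [hu2, hu1, pow_succ, pow_succ, pow_one, _root_.mul_inv_rev, _root_.mul_inv_rev]
      simp only [mul_assoc]
    rw [h1, hy3c, mul_inv_cancel_right]
  have hu1u1 : u1 * u1 = 1 := by
    rw [hu1]
    calc y * u * y⁻¹ * (y * u * y⁻¹) = y * (u * u) * y⁻¹ := by group
      _ = 1 := by rw [huu]; group
  have hu2u2 : u2 * u2 = 1 := by
    rw [hu2]
    calc y * u1 * y⁻¹ * (y * u1 * y⁻¹) = y * (u1 * u1) * y⁻¹ := by group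
      _ = 1 := by rw [hu1u1]; group
  obtain ⟨c, hc⟩ : ∃ c, c = u * u1 * u2 := ⟨_, rfl⟩
  have hcR : c ∈ R := by rw [hc]; exact R.mul_mem (R.mul_mem hu hu1R) hu2R
  have hcy : y * c * y⁻¹ = u1 * u2 * u := by
    calc y * c * y⁻¹ = (y * u * y⁻¹) * (y * u1 * y⁻¹) * (y * u2 * y⁻¹) := by rw [hc]; group
      _ = u1 * u2 * u := by rw [hu3]
  have hcy2 : y * c * y⁻¹ = c ∨ y * c * y⁻¹ = -c := by
    have h1 : u * (y * c * y⁻¹) = c * u := by rw [hcy, hc]; simp only [mul_assoc]
    have h2 : y * c * y⁻¹ = u * (c * u) := by rw [← h1, ← mul_assoc u, huu, one_mul]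
    rcases E.comm c hcR u hu with h | h
    · left
      rw [h2, h, ← mul_assoc, huu, one_mul]
    · right
      rw [h2, h, mul_neg, ← mul_assoc, huu, one_mul]
  have hcs := sign c hcR hcy2
  have hcc : ∀ x, c * x = x * c := comm_of_scalar hcs
  have huu1 : u * u1 = c * u2 := by
    rw [hc, mul_assoc, mul_assoc, hu2u2, mul_one]
  have hsq : (u * u1) * (u * u1) = c * c := by
    rw [huu1]
    calc c * u2 * (c * u2) = c * (u2 * c) * u2 := by simp only [mul_assoc]
      _ = c * (c * u2) * u2 := by rw [← hcc u2]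
      _ = c * c * (u2 * u2) := by simp only [mul_assoc]
      _ = c * c := by rw [hu2u2, mul_one]
  have hu1s : u1 ∉ scalars ι F := by
    intro h
    apply hus
    have h1 : u = y⁻¹ * u1 * y := by rw [hu1]; group
    rw [h1, mul_assoc, comm_of_scalar h, ← mul_assoc, inv_mul_cancel, one_mul]
    exact h
  -- `c² = 1`
  have hcc1 : c * c = 1 := by
    have h1 : (⟨c, hcR, hcs⟩ : (R ⊓ scalars ι F : Subgroup (GL ι F))) ^ 2 = 1 := by
      rw [← hZ2]; exact pow_card_eq_one'
    have h2 := congrArg Subtype.val h1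
    rw [← pow_two]; exact h2
  rw [hcc1] at hsq
  -- `u` and `u₁` commute
  have hcomm : u * u1 = u1 * u := by
    rcases E.comm u hu u1 hu1R with h | h
    · exact h
    · exfalso
      have h1 : (u * u1) * (u * u1) = -1 := by
        calc (u * u1) * (u * u1) = u * (u1 * u) * u1 := by group
          _ = -(u * u * (u1 * u1)) := by rw [Ext.anti_symm h]; simp only [mul_neg, neg_mul, mul_assoc]
          _ = -1 := by rw [huu, hu1u1, mul_one]
      rw [hsq] at h1
      exact hneg1 h1.symm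
  refine minus_false E hm hu hu1R huu hu1u1 hcomm hus hu1s (fun h => ?_)
  -- `u u₁` scalar: then `u₁ = ± u`
  have h1 : (⟨u * u1, R.mul_mem hu hu1R, h⟩ : (R ⊓ scalars ι F : Subgroup (GL ι F))) = 1 ∨
      (⟨u * u1, R.mul_mem hu hu1R, h⟩ : (R ⊓ scalars ι F : Subgroup (GL ι F))) =
        ⟨-1, E.neg, (mem_scalars_iff' _).2 ⟨-1, by simp⟩⟩ := by
    have h2 := (Nat.card_eq_two_iff' (1 : (R ⊓ scalars ι F : Subgroup (GL ι F)))).1 hZ2
    by_cases h3 : (⟨u * u1, R.mul_mem hu hu1R, h⟩ : (R ⊓ scalars ι F : Subgroup (GL ι F))) = 1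
    · exact Or.inl h3
    · right
      exact h2.unique h3 (fun h4 => hneg1 (congrArg Subtype.val h4))
  apply hus
  apply sign u hu
  rcases h1 with h1 | h1
  · left
    have h2 : u * u1 = 1 := congrArg Subtype.val h1
    calc u1 = u * (u * u1) := by rw [← mul_assoc, huu, one_mul]
      _ = u := by rw [h2, mul_one]
  · right
    have h2 : u * u1 = -1 := congrArg Subtype.val h1
    calc u1 = u * (u * u1) := by rw [← mul_assoc, huu, one_mul]
      _ = -u := by rw [h2, mul_neg, mul_one]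

end Cfsg.Agent.H960
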